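import Cfsg.Agent.Lib.Helper6.BN

set_option autoImplicit false

/-! # A criterion for (B,N)-pairs from "simple root subgroups" (helper36)

`RootOK B N s U`: `U ≤ B` is a root subgroup for the distinguished element `s`. -/

namespace Cfsg.Agent.Lib.Helper36.SpBN

open Cfsg Cfsg.Agent.Lib.Helper6.BN

variable {G : Type*} [Group G]

/-- `U` is a "simple root subgroup" attached to `s` in the pair `(B, N)`. -/
structure RootOK (B N : Subgroup G) (s : G) (U : Subgroup G) : Prop where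
  le : U ≤ B
  fac : ∀ b ∈ B, ∃ u ∈ U, s * (b * u⁻¹) * s⁻¹ ∈ B
  dich : ∀ n ∈ N, (∀ u ∈ U, n⁻¹ * u * n ∈ B) ∨ (∀ u ∈ U, (s * n)⁻¹ * u * (s * n) ∈ B)
  rank1 : ∀ u ∈ U, u ≠ 1 → ∃ b ∈ B, ∃ t ∈ B ⊓ N, ∃ u' ∈ U, s * u * s⁻¹ = b * s * t * u'
  ne : ∃ u ∈ U, u ≠ 1 ∧ s * u * s ∉ B

theorem RootOK.caseA {B N : Subgroup G} {s : G} {U : Subgroup G} (h : RootOK B N s U) {n : G}
    (hA : ∀ u ∈ U, n⁻¹ * u * n ∈ B) {b : G} (hb : b ∈ B) :
    s * b * n ∈ DoubleCoset.doubleCoset (s * n) (B : Set G) B := by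
  obtain ⟨u, hu, hbu⟩ := h.fac b hb
  rw [DoubleCoset.mem_doubleCoset]
  exact ⟨s * (b * u⁻¹) * s⁻¹, hbu, n⁻¹ * u * n, hA u hu, by group⟩

theorem RootOK.caseB {B N : Subgroup G} {s : G} {U : Subgroup G} (h : RootOK B N s U)
    (hconj : ∀ n ∈ N, ∀ t ∈ B ⊓ N, n * t * n⁻¹ ∈ B) (hsN : s ∈ N) (hsq : s * s ∈ B) {n : G}
    (hB : ∀ u ∈ U, (s * n)⁻¹ * u * (s * n) ∈ B) {u : G} (hu : u ∈ U) (hu1 : u ≠ 1) :
    s * u * n ∈ DoubleCoset.doubleCoset n (B : Set G) B := by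
  obtain ⟨b', hb', t, ht, u', hu', e⟩ := h.rank1 u hu hu1
  rw [DoubleCoset.mem_doubleCoset]
  refine ⟨b' * (s * t * s⁻¹) * (s * s), B.mul_mem (B.mul_mem hb' (hconj s hsN t ht)) hsq,
    (s * n)⁻¹ * u' * (s * n), hB u' hu', ?_⟩
  have e2 : s * u * n = (s * u * s⁻¹) * (s * n) := by group
  rw [e2, e]
  group

/-- the criterion -/
def bnOfRoot (B N : Subgroup G) (S : Set G) (hsup : B ⊔ N = ⊤)
    (hconj : ∀ n ∈ N, ∀ t ∈ B ⊓ N, n * t * n⁻¹ ∈ B) (hS : S ⊆ (N : Set G))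
    (hsq : ∀ s ∈ S, s * s ∈ B) (hinj : ∀ s ∈ S, ∀ s' ∈ S, s⁻¹ * s' ∈ B → s = s')
    (hcl : Subgroup.closure S ⊔ (B ⊓ N) = N)
    (hroot : ∀ s ∈ S, ∃ U : Subgroup G, RootOK B N s U) : Cfsg.BNPair G where
  B := B
  N := N
  S := S
  sup_eq_top := hsup
  conj_mem := hconj
  subset := hS
  sq_mem := hsq
  inj := hinj
  closure_sup := hcl
  mul_mem_union := by
    intro s hs n hn b hb
    obtain ⟨U, h⟩ := hroot s hs
    rcases h.dich n hn with hA | hB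
    · exact Or.inl (h.caseA hA hb)
    · obtain ⟨u, hu, hbu⟩ := h.fac b hb
      have e : s * b * n = (s * (b * u⁻¹) * s⁻¹) * (s * u * n) := by group
      by_cases hu1 : u = 1
      · left
        rw [e, hu1, DoubleCoset.mem_doubleCoset]
        exact ⟨s * (b * u⁻¹) * s⁻¹, hbu, 1, B.one_mem, by rw [hu1]; group⟩
      · right
        have h2 := h.caseB hconj (hS hs) (hsq s hs) hB hu hu1
        rw [DoubleCoset.mem_doubleCoset] at h2 ⊢
        obtain ⟨x, hx, y, hy, e3⟩ := h2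
        exact ⟨s * (b * u⁻¹) * s⁻¹ * x, B.mul_mem hbu hx, y, hy, by rw [e, e3]; group⟩
  conj_ne := by
    intro s hs heq
    obtain ⟨U, h⟩ := hroot s hs
    obtain ⟨u, hu, -, hne⟩ := h.ne
    apply hne
    have : s * u * s ∈ (fun b : G => s * b * s) '' (B : Set G) := ⟨u, h.le hu, rfl⟩
    rw [heq] at this
    exact this

/-- if the second alternative holds at `n`, then `s` is not an ascent of `n` -/
theorem not_up_of_root (P : Cfsg.BNPair G) {s : G} (hs : s ∈ P.S) {U : Subgroup G}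
    (h : RootOK P.B P.N s U) {n : G} (hn : n ∈ P.N)
    (hB : ∀ u ∈ U, (s * n)⁻¹ * u * (s * n) ∈ P.B) : ¬ Up P s n := by
  intro hup
  obtain ⟨u, hu, hu1, -⟩ := h.ne
  have h1 : s * u * n ∈ dc P (s * n) := hup u (h.le hu)
  have h2 : s * u * n ∈ dc P n := h.caseB P.conj_mem (S_mem_N hs) (P.sq_mem s hs) hB hu hu1
  have h3 : n ∈ dc P (s * n) := by
    have := dc_eq_of_mem h1
    rw [dc_eq_of_mem h2] at this
    rw [← this]
    exact self_mem_dc n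
  have hsn : s * n ∈ P.N := P.N.mul_mem (S_mem_N hs) hn
  have h4 : Rel P (s * n) n := bruhat_unique hsn hn h3
  -- (s n)⁻¹ n = n⁻¹ s⁻¹ n ∈ B
  have h5 : n⁻¹ * s⁻¹ * n ∈ P.B ⊓ P.N := by
    refine ⟨?_, P.N.mul_mem (P.N.mul_mem (P.N.inv_mem hn) (P.N.inv_mem (S_mem_N hs))) hn⟩
    have : (s * n)⁻¹ * n = n⁻¹ * s⁻¹ * n := by group
    rw [← this]
    exact h4
  have h6 := P.conj_mem n hn _ h5
  have h7 : n * (n⁻¹ * s⁻¹ * n) * n⁻¹ = s⁻¹ := by group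
  rw [h7] at h6
  exact S_not_mem_B hs (by simpa using P.B.inv_mem h6)

end Cfsg.Agent.Lib.Helper36.SpBN
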