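import Cfsg.Agent.S0165
import Cfsg.Agent.Lib.Helper78.DefectZero
import Cfsg.Agent.Lib.Helper80.Inflation
import Cfsg.Agent.Lib.Helper36.BNSt.Defs

set_option autoImplicit false

/-! # Descent of a Steinberg-like character to a quotient (helper36) -/

namespace Cfsg.Agent.Lib.Helper36.SpBN

open Cfsg

/-- an irreducible character of degree `#Q`, `Q` a Sylow `p`-subgroup, constant on a normal subgroup `N`, descends to
`G ⧸ N` and is there of degree the order of a Sylow `p`-subgroup, vanishing on its non-identity elements. -/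
theorem steinberg_descend {G : Type*} [Group G] [Finite G] (p : ℕ) [Fact p.Prime] (N : Subgroup G) [N.Normal]
    {χ : G → ℂ} (hirr : IsIrrCharacter G χ) (hN : ∀ n ∈ N, χ n = χ 1) (Q : Sylow p G)
    (h1 : χ 1 = (Nat.card Q : ℂ)) :
    ∃ ψ : G ⧸ N → ℂ, IsIrrCharacter (G ⧸ N) ψ ∧ ∀ P : Sylow p (G ⧸ N), ψ 1 = Nat.card P ∧
      ∀ x : G ⧸ N, x ∈ P → x ≠ 1 → ψ x = 0 := by
  classical
  have hp : p.Prime := Fact.out
  obtain ⟨ψ, hψ, hψχ⟩ := Cfsg.Agent.Lib.Helper80.exists_deflate_irr N hirr hN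
  obtain ⟨k, hk⟩ := (IsPGroup.iff_card.1 Q.2)
  have hψ1 : ψ 1 = ((p ^ k : ℕ) : ℂ) := by
    have := hψχ 1
    rw [QuotientGroup.mk_one] at this
    rw [this, h1, hk]
  have hψdeg : Cfsg.charDegree ψ = p ^ k := by
    have h := Cfsg.Agent.Lib.Helper80.char_one_eq_charDegree
      (Cfsg.Agent.Lib.Helper80.isCharacter_of_irr hψ)
    rw [hψ1] at h
    exact_mod_cast h.symm
  have hd1 : p ^ k ∣ Nat.card (G ⧸ N) := by
    have := Cfsg.Agent.Lib.Helper78.irr_charDegree_dvd_card (⟨ψ, hψ⟩ : Cfsg.IrrCharacter (G ⧸ N))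
    change Cfsg.charDegree ψ ∣ _ at this
    rwa [hψdeg] at this
  have hcop : ((Q : Subgroup G).index).Coprime p := by
    rw [Nat.coprime_comm, Nat.Prime.coprime_iff_not_dvd hp]
    exact Q.not_dvd_index
  have hG : Nat.card G = p ^ k * (Q : Subgroup G).index := by
    rw [← hk]
    exact ((Q : Subgroup G).card_mul_index).symm
  have hd2 : Nat.card (G ⧸ N) ∣ p ^ k * (Q : Subgroup G).index := by
    rw [← hG]
    exact Subgroup.card_quotient_dvd_card _
  have hcardP : ∀ P : Sylow p (G ⧸ N), Nat.card P = p ^ k := by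
    intro P
    apply Nat.dvd_antisymm
    · have h1 : Nat.card P ∣ p ^ k * (Q : Subgroup G).index := (Subgroup.card_subgroup_dvd_card _).trans hd2
      obtain ⟨l, hl⟩ := (IsPGroup.iff_card.1 P.2)
      apply Nat.Coprime.dvd_of_dvd_mul_right _ h1
      rw [hl]
      exact (Nat.Coprime.pow_left l hcop.symm)
    · exact P.pow_dvd_card_of_pow_dvd_card hd1
  refine ⟨ψ, hψ, fun P => ⟨?_, ?_⟩⟩
  · rw [hψ1, hcardP P]
  · intro x hx hx1
    have hpx : p ∣ orderOf x := by
      obtain ⟨l, hl⟩ := (IsPGroup.iff_orderOf.1 P.2) ⟨x, hx⟩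
      rw [Subgroup.orderOf_mk] at hl
      rw [hl]
      apply dvd_pow_self
      rintro rfl
      apply hx1
      simpa using hl
    obtain ⟨d, ρ, hρ, rfl⟩ := hψ
    have := hρ
    have hd : d = p ^ k := by
      rw [← hψdeg, Cfsg.Agent.Lib.Helper80.charDegree_of_rep]
    refine Cfsg.Agent.S0165.result ρ p k hp hd1 ?_ ?_ x hpx
    · intro h
      have h1 := h.trans hd2
      rw [pow_succ] at h1
      have h2 : p ∣ (Q : Subgroup G).index := Nat.dvd_of_mul_dvd_mul_left (pow_pos hp.pos _) h1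
      exact (Nat.Prime.coprime_iff_not_dvd hp).1 hcop.symm h2
    · rw [Module.finrank_fin_fun, hd]

/-- the permutation character on `G ⧸ H` takes the same value at a central element of `H` as at `1` -/
theorem fixedPointCharacter_central' {G : Type*} [Group G] (H : Subgroup G) (z : G)
    (hz : z ∈ Subgroup.center G) (hzH : z ∈ H) :
    Cfsg.fixedPointCharacter H z = Cfsg.fixedPointCharacter H 1 := by
  unfold Cfsg.fixedPointCharacter
  have h : MulAction.fixedBy (G ⧸ H) z = MulAction.fixedBy (G ⧸ H) (1 : G) := by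
    ext x
    obtain ⟨g, rfl⟩ := QuotientGroup.mk_surjective x
    simp only [MulAction.mem_fixedBy, one_smul, iff_true]
    change ((z * g : G) : G ⧸ H) = (g : G ⧸ H)
    rw [eq_comm, QuotientGroup.eq, ← (Subgroup.mem_center_iff.1 hz g), ← mul_assoc, inv_mul_cancel, one_mul]
    exact hzH
  rw [h]

/-- the Steinberg character of a (B,N)-pair is constant on central elements lying in `B` -/
theorem stChar_central {G : Type*} [Group G] [Finite G] (P : Cfsg.BNPair G) {z : G}
    (hz : z ∈ Subgroup.center G) (hzB : z ∈ P.B) :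
    Cfsg.Agent.Lib.Helper36.BNSt.stChar P z = Cfsg.Agent.Lib.Helper36.BNSt.stChar P 1 := by
  unfold Cfsg.Agent.Lib.Helper36.BNSt.stChar
  apply Finset.sum_congr rfl
  intro J _
  rw [fixedPointCharacter_central' _ z hz]
  exact (le_sup_left : P.B ≤ P.B ⊔ Subgroup.closure (J : Set G)) hzB

end Cfsg.Agent.Lib.Helper36.SpBN
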